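import Cfsg.Agent.Lib.F2Quad.Types
import Cfsg.Agent.Lib.Classical.MatrixBridge
import Cfsg.Prelude.Def_Classical

/-!
# The symmetric group of degree `2(m+1)` acting on even vectors modulo the all-ones vector

`Pt m = Fin (m+1) × Bool`; the vectors `eVec i`, `fVec i` give an explicit symplectic basis of
the even vectors modulo `ones`, and `q v = wt v / 2 mod 2` is identified with `quadFormPlus + fm (·, w)`.
-/

set_option autoImplicit false
set_option linter.unusedSectionVars false

namespace Cfsg.Agent.Lib.F2Quad.EvenSets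

open Cfsg.Agent.Lib.F2Quad.Basic Cfsg.Agent.Lib.F2Quad.Plus Cfsg.Agent.Lib.F2Quad.Types
open Cfsg.Agent.Lib.QuadFn.PlusForm
open scoped Matrix

abbrev Pt (m : ℕ) := Fin (m + 1) × Bool
abbrev Vec (m : ℕ) := Pt m → ZMod 2

variable {m : ℕ}

/-- All-ones vector. -/
def ones (m : ℕ) : Vec m := fun _ => 1

/-- `E j = {(l, b) | l ≤ j}`. -/
def bigE (j : Fin (m + 1)) : Vec m := fun p => if p.1 ≤ j then 1 else 0

def eVec (i : Fin m) : Vec m := bigE i.castSucc

def pair (l : Fin (m + 1)) : Vec m := Pi.single (l, false) 1 + Pi.single (l, true) 1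

def fVec (i : Fin m) : Vec m := Pi.single (i.castSucc, true) 1 + Pi.single (i.succ, false) 1

theorem dot_pair (v : Vec m) (l : Fin (m + 1)) : v ⬝ᵥ pair l = v (l, false) + v (l, true) := by
  simp [pair, dotProduct_add]

theorem dot_fVec (v : Vec m) (i : Fin m) : v ⬝ᵥ fVec i = v (i.castSucc, true) + v (i.succ, false) := by
  simp [fVec, dotProduct_add]

theorem bigE_zero : bigE (0 : Fin (m + 1)) = pair 0 := by
  ext ⟨l, b⟩
  simp only [bigE, pair, Pi.add_apply, Pi.single_apply, Prod.mk.injEq, nonpos_iff_eq_zero]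
  cases b <;> simp

theorem bigE_succ (i : Fin m) : bigE i.succ + bigE i.castSucc = pair i.succ := by
  ext ⟨l, b⟩
  simp only [bigE, pair, Pi.add_apply, Pi.single_apply, Prod.mk.injEq]
  by_cases h1 : l ≤ i.castSucc
  · have h2 : l ≤ i.succ := by
      rw [Fin.le_def] at *
      simp at *
      omega
    have h3 : l ≠ i.succ := by
      intro h
      rw [h, Fin.le_def] at h1
      simp at h1
    simp only [h1, h2, if_true, h3, false_and, if_false, add_zero]
    exact zmod2_add_self 1
  · by_cases h2 : l ≤ i.succ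
    · have h3 : l = i.succ := by
        rw [Fin.le_def] at h1 h2
        apply Fin.ext
        simp at *
        omega
      cases b <;> simp [h3]
    · have h3 : l ≠ i.succ := fun h => h2 (h ▸ le_refl _)
      simp [h1, h2, h3]

theorem dot_bigE_bigE (i j : Fin (m + 1)) : bigE i ⬝ᵥ bigE j = 0 := by
  simp only [dotProduct, Fintype.sum_prod_type, Fintype.sum_bool, bigE]
  apply Finset.sum_eq_zero
  intro l _
  exact zmod2_add_self _

theorem bigE_last : bigE (Fin.last m) = ones m := by
  ext ⟨l, b⟩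
  simp [bigE, ones, Fin.le_last]

theorem dot_ones (v : Vec m) : v ⬝ᵥ ones m = ∑ p, v p := by
  simp [dotProduct, ones]

theorem ones_dot (v : Vec m) : ones m ⬝ᵥ v = ∑ p, v p := by
  simp [dotProduct, ones]

theorem dot_fVec_fVec (i j : Fin m) : fVec i ⬝ᵥ fVec j = 0 := by
  rw [dot_fVec]
  simp only [fVec, Pi.add_apply, Pi.single_apply, Prod.mk.injEq, Fin.castSucc_inj, Fin.succ_inj]
  by_cases h : i = j
  · subst h
    simp
    exact zmod2_add_self 1
  · have h' : j ≠ i := Ne.symm h
    simp [h']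

theorem dot_eVec_fVec (i j : Fin m) : eVec i ⬝ᵥ fVec j = if j = i then 1 else 0 := by
  rw [dot_fVec]
  simp only [eVec, bigE]
  rcases lt_trichotomy (j : ℕ) (i : ℕ) with h | h | h
  · have h1 : j.castSucc ≤ i.castSucc := by
      rw [Fin.le_def]
      simp
      omega
    have h2 : j.succ ≤ i.castSucc := by
      rw [Fin.le_def]
      simp
      omega
    have h3 : j ≠ i := by
      intro h'
      rw [h'] at h
      omega
    simp only [h1, h2, h3, if_true, if_false]
    exact zmod2_add_self 1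
  · have h3 : j = i := Fin.ext h
    subst h3
    have h2 : ¬ j.succ ≤ j.castSucc := by
      rw [Fin.le_def]
      simp
    simp [h2]
  · have h1 : ¬ j.castSucc ≤ i.castSucc := by
      rw [Fin.le_def]
      simp
      omega
    have h2 : ¬ j.succ ≤ i.castSucc := by
      rw [Fin.le_def]
      simp
      omega
    have h3 : j ≠ i := by
      intro h'
      rw [h'] at h
      omega
    simp [h1, h2, h3]

theorem fVec_dot_eVec (i j : Fin m) : fVec j ⬝ᵥ eVec i = if j = i then 1 else 0 := by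
  rw [dotProduct_comm, dot_eVec_fVec]

theorem sum_bigE (j : Fin (m + 1)) : ∑ p, bigE j p = 0 := by
  rw [← ones_dot, ← bigE_last, dot_bigE_bigE]

theorem sum_eVec (i : Fin m) : ∑ p, eVec i p = 0 := sum_bigE _

theorem sum_fVec (i : Fin m) : ∑ p, fVec i p = 0 := by
  rw [← ones_dot, dot_fVec]
  simp [ones]
  exact zmod2_add_self 1

/-- The sum of the coordinates. -/
def sumL (m : ℕ) : Vec m →ₗ[ZMod 2] ZMod 2 := ∑ p, LinearMap.proj p

theorem sumL_apply (v : Vec m) : sumL m v = ∑ p, v p := by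
  simp [sumL, LinearMap.sum_apply]

/-- Coordinates to even vectors. -/
def psi (m : ℕ) : Vm m →ₗ[ZMod 2] Vec m where
  toFun z := ∑ i, (z (.inl i) • eVec i + z (.inr i) • fVec i)
  map_add' x y := by
    rw [← Finset.sum_add_distrib]
    refine Finset.sum_congr rfl fun i _ => ?_
    simp only [Pi.add_apply, add_smul]
    abel
  map_smul' c x := by
    rw [Finset.smul_sum]
    refine Finset.sum_congr rfl fun i _ => ?_
    simp only [Pi.smul_apply, smul_eq_mul, mul_smul, smul_add, RingHom.id_apply]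

theorem psi_apply (z : Vm m) : psi m z = ∑ i, (z (.inl i) • eVec i + z (.inr i) • fVec i) := rfl

/-- Even vectors to coordinates. -/
def pi (m : ℕ) : Vec m →ₗ[ZMod 2] Vm m where
  toFun v := Sum.elim (fun i => v ⬝ᵥ fVec i) (fun i => v ⬝ᵥ eVec i)
  map_add' x y := by
    ext (i | i) <;> simp [add_dotProduct]
  map_smul' c x := by
    ext (i | i) <;> simp [smul_dotProduct]

@[simp] theorem pi_inl (v : Vec m) (i : Fin m) : pi m v (.inl i) = v ⬝ᵥ fVec i := rfl
@[simp] theorem pi_inr (v : Vec m) (i : Fin m) : pi m v (.inr i) = v ⬝ᵥ eVec i := rfl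

theorem psi_dot_fVec (z : Vm m) (j : Fin m) : psi m z ⬝ᵥ fVec j = z (.inl j) := by
  rw [psi_apply, sum_dotProduct]
  simp only [add_dotProduct, smul_dotProduct, dot_eVec_fVec, dot_fVec_fVec, smul_zero, add_zero, smul_eq_mul, mul_ite,
    mul_one, mul_zero]
  simp

theorem psi_dot_eVec (z : Vm m) (j : Fin m) : psi m z ⬝ᵥ eVec j = z (.inr j) := by
  rw [psi_apply, sum_dotProduct]
  have h : ∀ i, eVec i ⬝ᵥ eVec j = 0 := fun i => dot_bigE_bigE _ _
  simp only [add_dotProduct, smul_dotProduct, h, fVec_dot_eVec, smul_zero, zero_add, smul_eq_mul, mul_ite,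
    mul_one, mul_zero]
  simp

theorem pi_psi (z : Vm m) : pi m (psi m z) = z := by
  ext (i | i)
  · exact psi_dot_fVec z i
  · exact psi_dot_eVec z i

theorem psi_dot_psi (u v : Vm m) : psi m u ⬝ᵥ psi m v = fm m u v := by
  rw [psi_apply v, dotProduct_sum]
  simp only [dotProduct_add, dotProduct_smul, psi_dot_eVec, psi_dot_fVec, smul_eq_mul, fm, polarPlus_apply]
  refine Finset.sum_congr rfl fun i _ => ?_
  ring

theorem sum_psi (z : Vm m) : ∑ p, psi m z p = 0 := by
  rw [← sumL_apply, psi_apply, map_sum]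
  apply Finset.sum_eq_zero
  intro i _
  rw [map_add, map_smul, map_smul, sumL_apply, sumL_apply, sum_eVec, sum_fVec]
  simp

theorem pi_ones : pi m (ones m) = 0 := by
  ext (i | i)
  · simp only [pi_inl, ones_dot, sum_fVec]
    rfl
  · simp only [pi_inr, ones_dot, sum_eVec]
    rfl

/-- Main structural lemma. -/
theorem eq_zero_or_ones (v : Vec m) (hv : ∑ p, v p = 0) (h : pi m v = 0) : v = 0 ∨ v = ones m := by
  have h1 : ∀ i : Fin m, v (i.castSucc, true) = v (i.succ, false) := by
    intro i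
    have := congrFun h (.inl i)
    simp only [pi_inl, dot_fVec, Pi.zero_apply] at this
    rcases zmod2_cases (v (i.castSucc, true)) with h' | h' <;> rcases zmod2_cases (v (i.succ, false)) with h'' | h'' <;>
      rw [h', h''] at this ⊢
    exact absurd this (by decide)
    exact absurd this (by decide)
  have h2 : ∀ j : Fin (m + 1), v ⬝ᵥ bigE j = 0 := by
    intro j
    refine Fin.lastCases ?_ (fun i => ?_) j
    · rw [bigE_last, dot_ones, hv]
    · have := congrFun h (.inr i)
      simpa [pi_inr, eVec] using this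
  have h3 : ∀ l : Fin (m + 1), v (l, false) + v (l, true) = 0 := by
    intro l
    refine Fin.cases ?_ (fun i => ?_) l
    · rw [← dot_pair, ← bigE_zero, h2]
    · rw [← dot_pair, ← bigE_succ, dotProduct_add, h2, h2, add_zero]
  have h4 : ∀ l : Fin (m + 1), v (l, true) = v (l, false) := by
    intro l
    have := h3 l
    rcases zmod2_cases (v (l, false)) with h' | h' <;> rcases zmod2_cases (v (l, true)) with h'' | h'' <;>
      rw [h', h''] at this ⊢
    exact absurd this (by decide)
    exact absurd this (by decide)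
  have h5 : ∀ l : Fin (m + 1), v (l, false) = v (0, false) := by
    intro l
    induction l using Fin.induction with
    | zero => rfl
    | succ i ih =>
      rw [← h1 i, h4, ih]
  have h6 : ∀ p, v p = v (0, false) := by
    rintro ⟨l, b⟩
    cases b
    · exact h5 l
    · rw [h4, h5]
  rcases zmod2_cases (v (0, false)) with h0 | h0
  · left
    ext p
    rw [h6, h0]
    rfl
  · right
    ext p
    rw [h6, h0]
    rfl

theorem psi_pi (v : Vec m) (hv : ∑ p, v p = 0) : psi m (pi m v) = v ∨ psi m (pi m v) = v + ones m := by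
  have h1 : ∑ p, (psi m (pi m v) + v) p = 0 := by
    simp only [Pi.add_apply, Finset.sum_add_distrib, sum_psi, hv, add_zero]
  have h2 : pi m (psi m (pi m v) + v) = 0 := by
    rw [map_add, pi_psi]
    ext j
    exact zmod2_add_self _
  rcases eq_zero_or_ones _ h1 h2 with h | h
  · left
    ext p
    have := congrFun h p
    simp only [Pi.add_apply, Pi.zero_apply] at this
    rcases zmod2_cases (psi m (pi m v) p) with h' | h' <;> rcases zmod2_cases (v p) with h'' | h'' <;>
      rw [h', h''] at this ⊢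
    exact absurd this (by decide)
    exact absurd this (by decide)
  · right
    ext p
    have := congrFun h p
    simp only [Pi.add_apply, ones] at this ⊢
    rcases zmod2_cases (psi m (pi m v) p) with h' | h' <;> rcases zmod2_cases (v p) with h'' | h'' <;>
      rw [h', h''] at this ⊢ <;> first | rfl | exact absurd this (by decide)

/-! ### Weights -/

/-- The weight. -/
def wt (v : Vec m) : ℕ := ∑ p, (v p).val

/-- The quadratic function: half the weight, mod 2. -/
def qf (v : Vec m) : ZMod 2 := ((wt v / 2 : ℕ) : ZMod 2)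

theorem val_add_aux (a b : ZMod 2) : (a + b).val + 2 * (a.val * b.val) = a.val + b.val := by
  revert a b
  decide

theorem wt_add (u v : Vec m) : wt (u + v) + 2 * ∑ p, (u p).val * (v p).val = wt u + wt v := by
  unfold wt
  rw [Finset.mul_sum, ← Finset.sum_add_distrib, ← Finset.sum_add_distrib]
  exact Finset.sum_congr rfl fun p _ => val_add_aux _ _

theorem cast_wt (v : Vec m) : ((wt v : ℕ) : ZMod 2) = ∑ p, v p := by
  unfold wt
  rw [Nat.cast_sum]
  exact Finset.sum_congr rfl fun p _ => ZMod.natCast_zmod_val _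

theorem even_wt {v : Vec m} (hv : ∑ p, v p = 0) : 2 ∣ wt v := by
  rw [← cast_wt] at hv
  exact (ZMod.natCast_eq_zero_iff _ _).mp hv

theorem qf_add {u v : Vec m} (hu : ∑ p, u p = 0) (hv : ∑ p, v p = 0) :
    qf (u + v) = qf u + qf v + u ⬝ᵥ v := by
  obtain ⟨a, ha⟩ := even_wt hu
  obtain ⟨b, hb⟩ := even_wt hv
  have h1 := wt_add u v
  have h2 : (((∑ p, (u p).val * (v p).val : ℕ)) : ZMod 2) = u ⬝ᵥ v := by
    rw [Nat.cast_sum]
    refine Finset.sum_congr rfl fun p _ => ?_
    rw [Nat.cast_mul, ZMod.natCast_zmod_val, ZMod.natCast_zmod_val]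
  set c := ∑ p, (u p).val * (v p).val with hc
  have h3 : 2 ∣ wt (u + v) := ⟨a + b - c, by omega⟩
  obtain ⟨d, hd⟩ := h3
  have h4 : d + c = a + b := by omega
  unfold qf
  rw [ha, hb, hd, Nat.mul_div_cancel_left _ (by norm_num), Nat.mul_div_cancel_left _ (by norm_num),
    Nat.mul_div_cancel_left _ (by norm_num), ← h2, ← Nat.cast_add, ← h4, Nat.cast_add]
  have := zmod2_add_self (c : ZMod 2)
  linear_combination -this

/-- The permutation action. -/
def P (σ : Equiv.Perm (Pt m)) : Vec m →ₗ[ZMod 2] Vec m where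
  toFun v := fun p => v (σ⁻¹ p)
  map_add' _ _ := rfl
  map_smul' _ _ := rfl

@[simp] theorem P_apply (σ : Equiv.Perm (Pt m)) (v : Vec m) (p) : P σ v p = v (σ⁻¹ p) := rfl

theorem P_mul (σ τ : Equiv.Perm (Pt m)) (v : Vec m) : P (σ * τ) v = P σ (P τ v) := by
  ext p
  simp [mul_inv_rev]

theorem P_one (v : Vec m) : P (1 : Equiv.Perm (Pt m)) v = v := rfl

theorem sum_P (σ : Equiv.Perm (Pt m)) (v : Vec m) : ∑ p, P σ v p = ∑ p, v p :=
  Equiv.sum_comp σ⁻¹ v

theorem wt_P (σ : Equiv.Perm (Pt m)) (v : Vec m) : wt (P σ v) = wt v :=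
  Equiv.sum_comp σ⁻¹ (fun p => (v p).val)

theorem qf_P (σ : Equiv.Perm (Pt m)) (v : Vec m) : qf (P σ v) = qf v := by
  unfold qf
  rw [wt_P]

theorem P_ones (σ : Equiv.Perm (Pt m)) : P σ (ones m) = ones m := rfl

theorem wt_ones : wt (ones m) = 2 * (m + 1) := by
  unfold wt ones
  have : (1 : ZMod 2).val = 1 := rfl
  simp [this]
  ring

theorem qf_ones (hm : Odd m) : qf (ones m) = 0 := by
  unfold qf
  rw [wt_ones, Nat.mul_div_cancel_left _ (by norm_num)]
  exact (ZMod.natCast_eq_zero_iff _ _).mpr (hm.add_one.two_dvd)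

theorem qf_add_ones (hm : Odd m) {v : Vec m} (hv : ∑ p, v p = 0) : qf (v + ones m) = qf v := by
  have hone : ∑ p, ones m p = 0 := by
    rw [← ones_dot, dot_ones]
    rw [← ones_dot, ← bigE_last, dot_bigE_bigE]
  rw [qf_add hv hone, qf_ones hm, dot_ones, hv]
  simp

/-! ### The action on coordinates -/

/-- The action on coordinates. -/
noncomputable def T (σ : Equiv.Perm (Pt m)) : Vm m →ₗ[ZMod 2] Vm m :=
  pi m ∘ₗ P σ ∘ₗ psi m

theorem T_apply (σ : Equiv.Perm (Pt m)) (z : Vm m) : T σ z = pi m (P σ (psi m z)) := rfl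

theorem pi_P_psi_pi (σ : Equiv.Perm (Pt m)) (v : Vec m) (hv : ∑ p, v p = 0) :
    pi m (P σ (psi m (pi m v))) = pi m (P σ v) := by
  rcases psi_pi v hv with h | h <;> rw [h]
  rw [map_add, map_add, P_ones, pi_ones, add_zero]

theorem T_mul (σ τ : Equiv.Perm (Pt m)) (z : Vm m) : T (σ * τ) z = T σ (T τ z) := by
  rw [T_apply, T_apply, T_apply, P_mul, pi_P_psi_pi _ _ (by rw [sum_P]; exact sum_psi z)]

theorem T_one (z : Vm m) : T (1 : Equiv.Perm (Pt m)) z = z := pi_psi z

/-- The action on coordinates, as a group homomorphism. -/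
noncomputable def Thom (m : ℕ) : Equiv.Perm (Pt m) →* (Vm m ≃ₗ[ZMod 2] Vm m) where
  toFun σ := LinearEquiv.ofLinearMap (T σ) (T σ⁻¹)
    (LinearMap.ext fun z => by
      show T σ (T σ⁻¹ z) = z
      rw [← T_mul, mul_inv_cancel, T_one])
    (LinearMap.ext fun z => by
      show T σ⁻¹ (T σ z) = z
      rw [← T_mul, inv_mul_cancel, T_one])
  map_one' := by
    ext z
    show T 1 z _ = z _
    rw [T_one]
  map_mul' σ τ := by
    ext z
    show T (σ * τ) z _ = T σ (T τ z) _
    rw [T_mul]

theorem Thom_apply (σ : Equiv.Perm (Pt m)) (z : Vm m) : Thom m σ z = T σ z := rfl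

/-- Quadratic function in coordinates. -/
def qc (m : ℕ) (z : Vm m) : ZMod 2 := qf (psi m z)

theorem qc_T (hm : Odd m) (σ : Equiv.Perm (Pt m)) (z : Vm m) : qc m (T σ z) = qc m z := by
  unfold qc
  rw [T_apply]
  have hs : ∑ p, P σ (psi m z) p = 0 := by rw [sum_P]; exact sum_psi z
  rcases psi_pi _ hs with h | h <;> rw [h]
  · rw [qf_P]
  · rw [qf_add_ones hm hs, qf_P]

theorem qc_polarizes : Polarizes (qc m) (fm m) :=
  ⟨fun u v => by
    unfold qc
    rw [map_add, qf_add (sum_psi u) (sum_psi v), psi_dot_psi]⟩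

/-- Point outside a small set. -/
theorem exists_pt_not_mem (hm : 2 ≤ m) (a b c d : Pt m) : ∃ p : Pt m, p ≠ a ∧ p ≠ b ∧ p ≠ c ∧ p ≠ d := by
  classical
  have h : ({a, b, c, d} : Finset (Pt m)).card < (Finset.univ : Finset (Pt m)).card := by
    have h1 : ({a, b, c, d} : Finset (Pt m)).card ≤ 4 := Finset.card_le_four
    have h2 : (Finset.univ : Finset (Pt m)).card = (m + 1) * 2 := by
      simp [Finset.card_univ]
    omega
  obtain ⟨p, _, hp⟩ := Finset.exists_mem_notMem_of_card_lt_card h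
  simp only [Finset.mem_insert, Finset.mem_singleton, not_or] at hp
  exact ⟨p, hp.1, hp.2.1, hp.2.2.1, hp.2.2.2⟩

theorem Thom_injective (hm : 2 ≤ m) : Function.Injective (Thom m) := by
  classical
  rw [injective_iff_map_eq_one]
  intro σ hσ
  by_contra hne
  obtain ⟨a, ha⟩ : ∃ a, σ a ≠ a := by
    by_contra hcon
    push Not at hcon
    exact hne (Equiv.ext hcon)
  obtain ⟨c, hc1, hc2, -, -⟩ := exists_pt_not_mem hm a (σ a) a a
  let v : Vec m := Pi.single a 1 + Pi.single c 1
  have hv : ∑ p, v p = 0 := by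
    simp only [v, Pi.add_apply, Finset.sum_add_distrib]
    simp
    exact zmod2_add_self 1
  -- `T σ` fixes `pi v`
  have h1 : T σ (pi m v) = pi m v := by
    have := DFunLike.congr_fun hσ (pi m v)
    exact this
  have h2 : pi m (P σ v) = pi m v := by
    rw [← h1, T_apply, pi_P_psi_pi _ _ hv]
  have hs : ∑ p, (P σ v + v) p = 0 := by
    simp only [Pi.add_apply, Finset.sum_add_distrib, sum_P, hv, add_zero]
  have h3 : pi m (P σ v + v) = 0 := by
    rw [map_add, h2]
    ext j
    exact zmod2_add_self _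
  -- points outside the support
  have hval : ∀ p, p ≠ a → p ≠ c → v p = 0 := by
    intro p hp1 hp2
    simp [v, Pi.single_apply, hp1, hp2]
  rcases eq_zero_or_ones _ hs h3 with h | h
  · -- evaluate at `σ a`
    have h4 := congrFun h (σ a)
    have h6 : σ⁻¹ (σ a) = a := by simp
    simp only [Pi.add_apply, P_apply, h6, Pi.zero_apply] at h4
    rw [hval _ ha (Ne.symm hc2), add_zero] at h4
    have h5 : v a = 1 := by
      simp [v, Pi.single_apply, Ne.symm hc1]
    rw [h5] at h4
    exact absurd h4 (by decide)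
  · obtain ⟨p, hp1, hp2, hp3, hp4⟩ := exists_pt_not_mem hm a c (σ a) (σ c)
    have h4 := congrFun h p
    simp only [Pi.add_apply, P_apply, ones] at h4
    rw [hval _ hp1 hp2, add_zero, hval] at h4
    · exact absurd h4 (by decide)
    · intro h'
      apply hp3
      rw [← h']
      simp
    · intro h'
      apply hp4
      rw [← h']
      simp

/-- Values on the basis. -/
theorem psi_single_inl (i : Fin m) : psi m (Pi.single (.inl i) 1) = eVec i := by
  classical
  rw [psi_apply]
  rw [Finset.sum_eq_single i]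
  · simp
  · intro j _ hj
    simp [Pi.single_apply, hj]
  · intro h
    exact absurd (Finset.mem_univ _) h

theorem psi_single_inr (i : Fin m) : psi m (Pi.single (.inr i) 1) = fVec i := by
  classical
  rw [psi_apply]
  rw [Finset.sum_eq_single i]
  · simp
  · intro j _ hj
    simp [Pi.single_apply, hj]
  · intro h
    exact absurd (Finset.mem_univ _) h

theorem wt_eVec (i : Fin m) : wt (eVec i) = 2 * ((i : ℕ) + 1) := by
  classical
  unfold wt eVec bigE
  simp only [Fintype.sum_prod_type, Fintype.sum_bool]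
  have h : ∀ l : Fin (m + 1), (if l ≤ i.castSucc then (1 : ZMod 2) else 0).val = if l ≤ i.castSucc then 1 else 0 := by
    intro l
    split_ifs <;> rfl
  simp only [h, ← two_mul]
  rw [← Finset.mul_sum, Finset.sum_boole]
  congr 1
  have : (Finset.univ.filter (fun l : Fin (m + 1) => l ≤ i.castSucc)) = Finset.Iic i.castSucc := by
    ext l
    simp
  simp [this]

theorem qf_eVec (i : Fin m) : qf (eVec i) = ((i : ℕ) + 1 : ℕ) := by
  unfold qf
  rw [wt_eVec, Nat.mul_div_cancel_left _ (by norm_num)]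

theorem wt_fVec (i : Fin m) : wt (fVec i) = 2 := by
  classical
  have h1 := wt_add (Pi.single (i.castSucc, true) 1 : Vec m) (Pi.single (i.succ, false) 1)
  have h2 : ∀ a : Pt m, wt (Pi.single a 1 : Vec m) = 1 := by
    intro a
    unfold wt
    rw [Finset.sum_eq_single a]
    · simp
      rfl
    · intro b _ hb
      simp [Pi.single_apply, hb]
    · intro h
      exact absurd (Finset.mem_univ _) h
  have h3 : ∑ p, ((Pi.single (i.castSucc, true) 1 : Vec m) p).val * ((Pi.single (i.succ, false) 1 : Vec m) p).val = 0 := by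
    apply Finset.sum_eq_zero
    rintro ⟨l, b⟩ _
    simp only [Pi.single_apply, Prod.mk.injEq]
    by_cases h : b = true
    · subst h
      simp
    · simp [h]
  rw [h2, h2, h3] at h1
  simpa [fVec] using h1

theorem qf_fVec (i : Fin m) : qf (fVec i) = 1 := by
  unfold qf
  rw [wt_fVec]
  rfl

/-- The vector `w`. -/
theorem qc_eq (m : ℕ) : ∃ w : Vm m, (∀ z, qc m z = Cfsg.quadFormPlus m (ZMod 2) z + fm m z w) ∧
    Cfsg.quadFormPlus m (ZMod 2) w = ∑ i : Fin m, (((i : ℕ) + 1 : ℕ) : ZMod 2) := by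
  classical
  obtain ⟨w, hw⟩ := exists_w (qc_polarizes (m := m))
  refine ⟨w, hw, ?_⟩
  have h1 : ∀ i, w (.inr i) = (((i : ℕ) + 1 : ℕ) : ZMod 2) := by
    intro i
    have := hw (Pi.single (.inl i) 1)
    rw [qc, psi_single_inl, qf_eVec] at this
    rw [this]
    simp [Cfsg.quadFormPlus, fm, polarPlus_apply, Pi.single_apply]
  have h2 : ∀ i, w (.inl i) = 1 := by
    intro i
    have := hw (Pi.single (.inr i) 1)
    rw [qc, psi_single_inr, qf_fVec] at this
    rw [this]
    simp [Cfsg.quadFormPlus, fm, polarPlus_apply, Pi.single_apply]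
  simp only [Cfsg.quadFormPlus, h1, h2, one_mul]

theorem sum_arith (k : ℕ) : ∑ i : Fin (2 * k + 1), (((i : ℕ) + 1 : ℕ) : ZMod 2) = ((k + 1 : ℕ) : ZMod 2) := by
  rw [Fin.sum_univ_eq_sum_range (fun i => (((i : ℕ) + 1 : ℕ) : ZMod 2))]
  induction k with
  | zero => simp
  | succ k ih =>
    have : 2 * (k + 1) + 1 = (2 * k + 1) + 1 + 1 := by ring
    rw [this, Finset.sum_range_succ, Finset.sum_range_succ, ih]
    push_cast
    generalize (k : ZMod 2) = a
    revert a
    decide

/-- Building isometry groups from linear actions. -/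
theorem exists_hom_isometry {G : Type*} [Group G] {W : Type*} [AddCommGroup W] [Module (ZMod 2) W]
    {ι : Type} [Fintype ι] [DecidableEq ι] (Q : (ι → ZMod 2) → ZMod 2) (g : W ≃ₗ[ZMod 2] (ι → ZMod 2))
    (φ : G →* (W ≃ₗ[ZMod 2] W)) (hφ : Function.Injective φ)
    (hQ : ∀ σ z, Q (g (φ σ z)) = Q (g z)) :
    ∃ ψ : G →* ↥(Cfsg.isometryGroup (ZMod 2) Q), Function.Injective ψ ∧
      ∀ σ z, (ψ σ).1.1.mulVec z = g (φ σ (g.symm z)) := by
  open Cfsg.Agent.Lib.Classical.MatrixBridge in
  let conj : G →* ((ι → ZMod 2) ≃ₗ[ZMod 2] (ι → ZMod 2)) :=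
    { toFun := fun σ => g.symm.trans ((φ σ).trans g)
      map_one' := by
        ext z
        simp
      map_mul' := fun σ τ => by
        ext z
        simp }
  let to' : G →* Matrix.GeneralLinearGroup ι (ZMod 2) := (glToLin.symm.toMonoidHom).comp conj
  have hto' : ∀ σ z, ((to' σ : Matrix.GeneralLinearGroup ι (ZMod 2)) : Matrix ι ι (ZMod 2)).mulVec z = g (φ σ (g.symm z)) := by
    intro σ z
    show ((glToLin.symm (conj σ) : Matrix.GeneralLinearGroup ι (ZMod 2)) : Matrix ι ι (ZMod 2)).mulVec z = _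
    rw [glToLin_symm_mulVec]
    rfl
  have hmem : ∀ σ, to' σ ∈ Cfsg.isometryGroup (ZMod 2) Q := by
    intro σ u _
    show Q (((to' σ : Matrix.GeneralLinearGroup ι (ZMod 2)) : Matrix ι ι (ZMod 2)).mulVec u) = Q u
    rw [hto', hQ]
    simp
  refine ⟨to'.codRestrict _ hmem, ?_, fun σ z => hto' σ z⟩
  intro σ τ h
  apply hφ
  ext z
  have h1 : to' σ = to' τ := congrArg Subtype.val h
  have h2 : ∀ z, g (φ σ (g.symm z)) = g (φ τ (g.symm z)) := fun z => by
    rw [← hto', ← hto', h1]
  have h3 := h2 (g z)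
  simp only [LinearEquiv.symm_apply_apply] at h3
  rw [g.injective h3]

/-- Main theorem, plus type. -/
theorem exists_plus (k : ℕ) (hk : 1 ≤ k) (hodd : Odd k) :
    ∃ (φ : Equiv.Perm (Pt (2 * k + 1)) →* ↥(Cfsg.isometryGroup (ZMod 2) (Cfsg.quadFormPlus (2 * k + 1) (ZMod 2))))
      (g : Vm (2 * k + 1) ≃ₗ[ZMod 2] Vm (2 * k + 1)), Function.Injective φ ∧
      (∀ z, qc (2 * k + 1) z = Cfsg.quadFormPlus (2 * k + 1) (ZMod 2) (g z)) ∧
      ∀ σ z, (φ σ).1.1.mulVec z = g (T σ (g.symm z)) := by
  obtain ⟨w, hw, hv⟩ := qc_eq (2 * k + 1)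
  rw [sum_arith] at hv
  have h0 : Cfsg.quadFormPlus (2 * k + 1) (ZMod 2) w = 0 := by
    rw [hv]
    exact (ZMod.natCast_eq_zero_iff _ _).mpr hodd.add_one.two_dvd
  obtain ⟨g, hg⟩ := (plus_iff _ w).mpr h0
  have hqc : ∀ z, qc (2 * k + 1) z = Cfsg.quadFormPlus (2 * k + 1) (ZMod 2) (g z) := fun z => by
    rw [hw, hg]
  obtain ⟨φ, h1, h2⟩ := exists_hom_isometry (Cfsg.quadFormPlus (2 * k + 1) (ZMod 2)) g (Thom _)
    (Thom_injective (by omega)) (fun σ z => by
      rw [← hqc, ← hqc]
      exact qc_T (by simp) σ z)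
  exact ⟨φ, g, h1, hqc, h2⟩

/-- Main theorem, minus type. -/
theorem exists_minus (k : ℕ) (hk : 1 ≤ k) (heven : Even k) :
    ∃ φ : Equiv.Perm (Pt (2 * k + 1)) →* ↥(Cfsg.isometryGroup (ZMod 2) (Cfsg.quadFormMinus (2 * k) (ZMod 2) 1 1)),
      Function.Injective φ := by
  obtain ⟨w, hw, hv⟩ := qc_eq (2 * k + 1)
  rw [sum_arith] at hv
  have h0 : Cfsg.quadFormPlus (2 * k + 1) (ZMod 2) w = 1 := by
    rw [hv]
    have : ((k + 1 : ℕ) : ZMod 2) = (k : ZMod 2) + 1 := by push_cast; rfl
    rw [this, (ZMod.natCast_eq_zero_iff _ _).mpr heven.two_dvd]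
    simp
  obtain ⟨g, hg⟩ := (minus_iff (2 * k) w).mpr h0
  have hqc : ∀ z, qc (2 * k + 1) z = Cfsg.quadFormMinus (2 * k) (ZMod 2) 1 1 (g z) := fun z => by
    rw [hw, hg]
  obtain ⟨φ, h1, -⟩ := exists_hom_isometry (Cfsg.quadFormMinus (2 * k) (ZMod 2) 1 1) g (Thom _)
    (Thom_injective (by omega)) (fun σ z => by
      rw [← hqc, ← hqc]
      exact qc_T (by simp) σ z)
  exact ⟨φ, h1⟩

/-- The point set as `Fin (4 k + 4)`. -/
noncomputable def ptEquiv (k : ℕ) : Fin (4 * k + 4) ≃ Pt (2 * k + 1) :=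
  (Fintype.equivFinOfCardEq (by simp; ring)).symm

end Cfsg.Agent.Lib.F2Quad.EvenSets
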