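import Cfsg.Agent.Lib.F2Quad.Types
import Cfsg.Prelude.Def_Classical

/-!
# Upper bounds for the order of the plus-type orthogonal groups over `ZMod 2` by stabilizer chains
-/

set_option autoImplicit false
set_option linter.unusedSectionVars false

namespace Cfsg.Agent.Lib.F2Quad.OrthChain

open Cfsg.Agent.Lib.F2Quad.Basic Cfsg.Agent.Lib.F2Quad.Plus Cfsg.Agent.Lib.F2Quad.Types
open Cfsg.Agent.Lib.QuadFn.PlusForm
open scoped Matrix

/-- Abstract bound through fibres. -/
theorem card_le_of_fiber {G X : Type*} [Group G] [Finite G] (H K : Subgroup G) (ev : G → X)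
    (hev : ∀ g ∈ H, ∀ h ∈ H, ev g = ev h → g⁻¹ * h ∈ K) (A : Finset X) (hA : ∀ g ∈ H, ev g ∈ A) :
    Nat.card H ≤ A.card * Nat.card K := by
  classical
  have := Fintype.ofFinite G
  have hcard : ∀ L : Subgroup G, Nat.card L = (Finset.univ.filter (fun g => g ∈ L)).card := by
    intro L
    rw [Nat.card_eq_fintype_card, Fintype.card_subtype]
  rw [hcard H, hcard K]
  set s := Finset.univ.filter (fun g => g ∈ H) with hs
  have h1 := Finset.card_le_mul_card_image (f := ev) s (Finset.univ.filter (fun g => g ∈ K)).card (by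
    intro a ha
    obtain ⟨g₀, hg₀, rfl⟩ := Finset.mem_image.mp ha
    have hg₀' : g₀ ∈ H := (Finset.mem_filter.mp hg₀).2
    apply Finset.card_le_card_of_injOn (fun x => g₀⁻¹ * x)
    · intro x hx
      have hx' := Finset.mem_filter.mp hx
      have hxH : x ∈ H := (Finset.mem_filter.mp hx'.1).2
      simp only [Finset.coe_filter, Finset.mem_univ, true_and, Set.mem_ofPred_eq]
      exact hev g₀ hg₀' x hxH hx'.2.symm
    · intro x _ y _ hxy
      exact mul_left_cancel hxy)
  have h2 : (s.image ev).card ≤ A.card := by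
    apply Finset.card_le_card
    intro a ha
    obtain ⟨g, hg, rfl⟩ := Finset.mem_image.mp ha
    exact hA g (Finset.mem_filter.mp hg).2
  calc s.card ≤ _ := h1
    _ ≤ _ := by rw [mul_comm]; exact Nat.mul_le_mul_right _ h2

variable {m : ℕ}

/-- The orthogonal group. -/
abbrev OG (m : ℕ) := ↥(Cfsg.isometryGroup (ZMod 2) (Cfsg.quadFormPlus m (ZMod 2)))

/-- The action on vectors. -/
def act (g : OG m) (v : Vm m) : Vm m := g.1.1 *ᵥ v

theorem act_mul (g h : OG m) (v : Vm m) : act (g * h) v = act g (act h v) := by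
  simp [act, Matrix.mulVec_mulVec]

theorem act_one (v : Vm m) : act (1 : OG m) v = v := by
  simp [act]

theorem act_add (g : OG m) (u v : Vm m) : act g (u + v) = act g u + act g v :=
  Matrix.mulVec_add _ _ _

theorem act_zero (g : OG m) : act g 0 = 0 := Matrix.mulVec_zero _

theorem act_inj (g : OG m) {u v : Vm m} (h : act g u = act g v) : u = v := by
  have := congrArg (act g⁻¹) h
  rwa [← act_mul, ← act_mul, inv_mul_cancel, act_one, act_one] at this

theorem Q_act (g : OG m) (v : Vm m) : Cfsg.quadFormPlus m (ZMod 2) (act g v) = Cfsg.quadFormPlus m (ZMod 2) v :=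
  g.2 v 0

theorem fm_act (g : OG m) (u v : Vm m) : fm m (act g u) (act g v) = fm m u v := by
  rw [← polar_eq, ← polar_eq, ← act_add, Q_act, Q_act, Q_act]

/-- The pointwise stabilizer of a list of vectors. -/
def stabL (l : List (Vm m)) : Subgroup (OG m) where
  carrier := {g | ∀ y ∈ l, act g y = y}
  mul_mem' {a b} ha hb y hy := by
    rw [act_mul, hb y hy, ha y hy]
  one_mem' y _ := act_one y
  inv_mem' {a} ha y hy := by
    have := congrArg (act a⁻¹) (ha y hy)
    rw [← act_mul, inv_mul_cancel, act_one] at this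
    exact this.symm

theorem mem_stabL {l : List (Vm m)} {g : OG m} : g ∈ stabL l ↔ ∀ y ∈ l, act g y = y := Iff.rfl

/-- The candidates for the image of `x` under the stabilizer of `l`. -/
noncomputable def setA (l : List (Vm m)) (x : Vm m) : Finset (Vm m) :=
  Finset.univ.filter (fun v => v ≠ 0 ∧ Cfsg.quadFormPlus m (ZMod 2) v = Cfsg.quadFormPlus m (ZMod 2) x ∧ ∀ y ∈ l, fm m v y = fm m x y)

theorem card_stab_le (l : List (Vm m)) (x : Vm m) (hx : x ≠ 0) :
    Nat.card (stabL l) ≤ (setA l x).card * Nat.card (stabL (x :: l)) := by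
  apply card_le_of_fiber (stabL l) (stabL (x :: l)) (fun g => act g x)
  · intro g hg h hh e
    replace e : act g x = act h x := e
    intro y hy
    rcases List.mem_cons.mp hy with rfl | hy
    · rw [act_mul, ← e, ← act_mul, inv_mul_cancel, act_one]
    · exact (stabL l).mul_mem ((stabL l).inv_mem hg) hh y hy
  · intro g hg
    simp only [setA, Finset.mem_filter, Finset.mem_univ, true_and]
    refine ⟨?_, Q_act g x, ?_⟩
    · intro h0
      exact hx (act_inj g (by rw [h0, act_zero]))
    · intro y hy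
      rw [← hg y hy, fm_act, hg y hy]

theorem stabL_eq_bot (l : List (Vm m)) (hl : ∀ j, (Pi.single j 1 : Vm m) ∈ l) : stabL l = ⊥ := by
  rw [eq_bot_iff]
  intro g hg
  rw [Subgroup.mem_bot]
  apply Subtype.ext
  apply Units.ext
  ext i j
  have := congrFun (hg _ (hl j)) i
  simpa [act, Matrix.one_apply, Pi.single_apply] using this

theorem stabL_nil : stabL ([] : List (Vm m)) = ⊤ := by
  rw [eq_top_iff]
  intro g _ y hy
  simp at hy

theorem card_OG_eq (m : ℕ) : Nat.card (OG m) = Nat.card (stabL ([] : List (Vm m))) := by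
  rw [stabL_nil, Subgroup.card_top]

/-- Standard basis vectors. -/
def eV (m : ℕ) (j : Fin m ⊕ Fin m) : Vm m := Pi.single j 1

theorem eV_ne_zero (j : Fin m ⊕ Fin m) : eV m j ≠ 0 := by
  intro h
  have := congrFun h j
  simp [eV] at this

theorem card_OG_three : Nat.card (OG 3) ≤ 40320 := by
  rw [card_OG_eq]
  let e1 := eV 3 (.inl 0)
  let f1 := eV 3 (.inr 0)
  let e2 := eV 3 (.inl 1)
  let f2 := eV 3 (.inr 1)
  let e3 := eV 3 (.inl 2)
  let f3 := eV 3 (.inr 2)
  have h1 := card_stab_le [] e1 (eV_ne_zero _)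
  have h2 := card_stab_le [e1] f1 (eV_ne_zero _)
  have h3 := card_stab_le [f1, e1] e2 (eV_ne_zero _)
  have h4 := card_stab_le [e2, f1, e1] f2 (eV_ne_zero _)
  have h5 := card_stab_le [f2, e2, f1, e1] e3 (eV_ne_zero _)
  have h6 := card_stab_le [e3, f2, e2, f1, e1] f3 (eV_ne_zero _)
  have c1 : (setA [] e1).card = 35 := by decide +kernel
  have c2 : (setA [e1] f1).card = 16 := by decide +kernel
  have c3 : (setA [f1, e1] e2).card = 9 := by decide +kernel
  have c4 : (setA [e2, f1, e1] f2).card = 4 := by decide +kernel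
  have c5 : (setA [f2, e2, f1, e1] e3).card = 2 := by decide +kernel
  have c6 : (setA [e3, f2, e2, f1, e1] f3).card = 1 := by decide +kernel
  rw [c1] at h1
  rw [c2] at h2
  rw [c3] at h3
  rw [c4] at h4
  rw [c5] at h5
  rw [c6] at h6
  have h7 : stabL [f3, e3, f2, e2, f1, e1] = ⊥ := by
    apply stabL_eq_bot
    rintro (j | j) <;> fin_cases j <;> simp [e1, f1, e2, f2, e3, f3, eV]
  rw [h7, Subgroup.card_bot] at h6
  omega

theorem card_OG_two : Nat.card (OG 2) ≤ 72 := by
  rw [card_OG_eq]
  let e1 := eV 2 (.inl 0)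
  let f1 := eV 2 (.inr 0)
  let e2 := eV 2 (.inl 1)
  let f2 := eV 2 (.inr 1)
  have h1 := card_stab_le [] e1 (eV_ne_zero _)
  have h2 := card_stab_le [e1] f1 (eV_ne_zero _)
  have h3 := card_stab_le [f1, e1] e2 (eV_ne_zero _)
  have h4 := card_stab_le [e2, f1, e1] f2 (eV_ne_zero _)
  have c1 : (setA [] e1).card = 9 := by decide +kernel
  have c2 : (setA [e1] f1).card = 4 := by decide +kernel
  have c3 : (setA [f1, e1] e2).card = 2 := by decide +kernel
  have c4 : (setA [e2, f1, e1] f2).card = 1 := by decide +kernel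
  rw [c1] at h1
  rw [c2] at h2
  rw [c3] at h3
  rw [c4] at h4
  have h7 : stabL [f2, e2, f1, e1] = ⊥ := by
    apply stabL_eq_bot
    rintro (j | j) <;> fin_cases j <;> simp [e1, f1, e2, f2, eV]
  rw [h7, Subgroup.card_bot] at h4
  omega

end Cfsg.Agent.Lib.F2Quad.OrthChain
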